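import Mathlib
import Cfsg.Agent.Lib.Helper66.OGrpE
import Cfsg.Agent.Lib.Helper49.GamO7
import Cfsg.Agent.Lib.Helper6.OA.ClsGen

set_option autoImplicit false
set_option linter.unusedSectionVars false
set_option linter.unusedVariables false

/-!
# Involutory graph-field automorphisms of `PΩ⁺`: the level of `ΓO`
-/

namespace Cfsg.Agent.Lib.Helper6.GF

open Matrix QuadraticMap Module
open scoped MatrixGroups
open Cfsg.Agent.Lib.Helper49 (GamL GamO semiFun semiFun_mul semiFun_one semiFun_inv_semiFun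
  semiFun_semiFun_inv semiFun_add semiFun_smul semiFun_inl glMap coe_glMap cGam cGam_induced
  eq_cGam_of_induced mem_GamO IsLagr ker_cGam scalHom scalHom_left scalHom_right cGam_scalHom
  plusQF plusQF_coe plusQF_nondegenerate isLagr_stdLagr stdLagr gammaPOmega_eq_range
  polar_quadFormPlus exists_frob)
open Cfsg.Agent.Lib.Helper6.OA (GO O_le_GO inndiagOf)
open Cfsg.Agent.Lib.Helper66.OGrp
open Cfsg.Agent.Lib.Helper66.OLang (sv swapVec plus_swapVec sv_swapVec)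

section ext

variable {ι : Type} [Fintype ι] [DecidableEq ι] {F : Type*} [Field F]

/-- elements of `ΓL` are determined by the field automorphism and the semilinear map -/
theorem gamL_ext (x y : GamL ι F) (hr : x.right = y.right)
    (h : ∀ v, semiFun x v = semiFun y v) : x = y := by
  ext1
  · apply Units.ext
    apply Matrix.mulVec_injective
    funext v
    have := h (fun i => x.right.symm (v i))
    unfold semiFun at this
    rw [← hr] at this
    simpa using this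
  · exact hr

end ext

variable {F : Type*} [Field F]

/-- the reflection in `e₀ - f₀` interchanges the coordinates `e₀`, `f₀` -/
theorem refl_swapVec_mulVec (k : ℕ) (x : Fin (k + 1) ⊕ Fin (k + 1) → F) :
    Cfsg.reflectionMatrix ⇑(plusQF (k + 1) F) (swapVec k 1) *ᵥ x =
      fun i => x (Equiv.swap (Sum.inl 0) (Sum.inr 0) i) := by
  rw [Cfsg.Agent.Lib.Helper18.reflectionMatrix_mulVec, plus_swapVec]
  have hp : polar ⇑(plusQF (k + 1) F) (swapVec k 1) x = x (Sum.inr 0) - x (Sum.inl 0) := by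
    rw [plusQF_coe, polar_quadFormPlus, Fin.sum_univ_succ]
    rw [Finset.sum_eq_zero]
    · simp [swapVec]
      ring
    · intro i _
      simp [swapVec, Fin.succ_ne_zero]
  rw [hp]
  funext i
  rcases i with i | i
  · refine Fin.cases ?_ (fun i => ?_) i
    · simp [swapVec]
    · rw [Equiv.swap_apply_of_ne_of_ne (by simp [Fin.succ_ne_zero]) (by simp)]
      simp [swapVec, Fin.succ_ne_zero]
  · refine Fin.cases ?_ (fun i => ?_) i
    · simp [swapVec]
    · rw [Equiv.swap_apply_of_ne_of_ne (by simp) (by simp [Fin.succ_ne_zero])]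
      simp [swapVec, Fin.succ_ne_zero]

variable [Fintype F]

/-- the standard involutory graph-field element of `ΓO⁺` -/
noncomputable def X1 (k : ℕ) (σ : F ≃+* F) : ↥(GamO ⇑(plusQF (k + 1) F)) :=
  gR (k + 1) (swapVec k 1) * gS (plusQF (k + 1) F) (hσQ_plus (k + 1)) σ

theorem X1_right (k : ℕ) (σ : F ≃+* F) : (X1 k σ).1.right = σ := by
  show (1 : F ≃+* F) * σ = σ
  rw [one_mul]

theorem semiFun_X1 (k : ℕ) (σ : F ≃+* F) (v : Fin (k + 1) ⊕ Fin (k + 1) → F) :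
    semiFun (X1 k σ).1 v = fun i => σ (v (Equiv.swap (Sum.inl 0) (Sum.inr 0) i)) := by
  show semiFun ((gR (k + 1) (swapVec k 1)).1 * (gS (plusQF (k + 1) F) (hσQ_plus (k + 1)) σ).1) v = _
  rw [semiFun_mul]
  have h1 : semiFun (gS (plusQF (k + 1) F) (hσQ_plus (k + 1)) σ).1 v = fun i => σ (v i) := by
    show (1 : GL (Fin (k + 1) ⊕ Fin (k + 1)) F).1 *ᵥ (fun i => σ (v i)) = _
    simp
  rw [h1]
  show Cfsg.reflectionMatrix ⇑(plusQF (k + 1) F) (swapVec k 1) *ᵥ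
    (fun i => (1 : F ≃+* F) (σ (v i))) = _
  rw [refl_swapVec_mulVec]
  rfl

theorem not_PL_X1 (k : ℕ) (σ : F ≃+* F) : ¬ PL (plusQF (k + 1) F) (X1 k σ) := by
  unfold X1
  rw [PL_mul _ (plusQF_nondegenerate (k + 1) F) isLagr_stdLagr (hσQ_plus (k + 1))]
  intro h
  exact not_PL_gR (k + 1) (swapVec k (1 : F)) (by rw [plus_swapVec]; simp)
    (h.2 (pres_one _ (plusQF_nondegenerate (k + 1) F) isLagr_stdLagr))

theorem X1_mul_self (k : ℕ) (σ : F ≃+* F) (hσ : ∀ x, σ (σ x) = x) : X1 k σ * X1 k σ = 1 := by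
  apply Subtype.ext
  show (X1 k σ).1 * (X1 k σ).1 = 1
  apply gamL_ext
  · rw [SemidirectProduct.mul_right, X1_right]
    ext x
    exact hσ x
  · intro v
    rw [semiFun_mul, semiFun_X1, semiFun_X1, semiFun_one]
    funext i
    simp [hσ]

theorem card_idx (m : ℕ) (hm : 5 ≤ m) : 7 ≤ Fintype.card (Fin m ⊕ Fin m) := by
  simp only [Fintype.card_sum, Fintype.card_fin]; omega

theorem orderOf_cGam_X1 (k : ℕ) (hk : 5 ≤ k + 1) (σ : F ≃+* F) (hσ : ∀ x, σ (σ x) = x)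
    (hσ1 : σ ≠ 1) : orderOf (cGam ⇑(plusQF (k + 1) F) (X1 k σ)) = 2 := by
  apply orderOf_eq_prime
  · rw [pow_two, ← map_mul, X1_mul_self k σ hσ, map_one]
  · intro h
    have := (ker_cGam _ (plusQF_nondegenerate (k + 1) F) (card_idx _ hk) _ h).1
    rw [X1_right] at this
    exact hσ1 this

/-- the graph-field class predicate, for the form as a `QuadraticForm` -/
def GFC (m : ℕ) (x : MulAut (Cfsg.POmega F ⇑(plusQF m F))) : Prop :=
  ∃ (α γ φ : MulAut (Cfsg.POmega F ⇑(plusQF m F))) (σ : F ≃+* F)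
    (v : Fin m ⊕ Fin m → F) (r : GL (Fin m ⊕ Fin m) F),
    σ ≠ RingEquiv.refl F ∧ plusQF m F v ≠ 0 ∧ (∀ i, σ (v i) = v i) ∧
    (r : Matrix (Fin m ⊕ Fin m) (Fin m ⊕ Fin m) F) = Cfsg.reflectionMatrix ⇑(plusQF m F) v ∧
    Cfsg.IsInducedBySemilinearPOmega ⇑(plusQF m F) r (RingEquiv.refl F) γ ∧
    Cfsg.IsFieldAutPOmegaOf ⇑(plusQF m F) σ φ ∧ α * x * α⁻¹ = γ * φ

theorem ringAut_comm {p f : ℕ} [Fact p.Prime] (hF : Fintype.card F = p ^ f) (a b : F ≃+* F) :
    a * b = b * a := by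
  obtain ⟨φ, -, -, hall, -⟩ := exists_frob hF
  obtain ⟨k, rfl⟩ := hall a
  obtain ⟨l, rfl⟩ := hall b
  rw [← pow_add, ← pow_add, add_comm]

/-- a graph-field class element of order two comes from an element of `ΓO` interchanging the
classes whose field automorphism has order two -/
theorem exists_rep {p f : ℕ} [Fact p.Prime] (hF : Fintype.card F = p ^ f) {m : ℕ} (hm : 5 ≤ m)
    (hub : Cfsg.gammaPOmega F ⇑(plusQF m F) = ⊤)
    (x : MulAut (Cfsg.POmega F ⇑(plusQF m F))) (hx : GFC m x) (hx2 : orderOf x = 2) :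
    ∃ X : ↥(GamO ⇑(plusQF m F)), x = cGam ⇑(plusQF m F) X ∧ ¬ PL (plusQF m F) X ∧
      orderOf X.1.right = 2 := by
  have hQ : (polarBilin (plusQF m F)).Nondegenerate := plusQF_nondegenerate m F
  have hL : IsLagr (plusQF m F) (stdLagr m F) := isLagr_stdLagr
  have hσQ := hσQ_plus (F := F) m
  have hsurj : Function.Surjective (cGam ⇑(plusQF m F)) := by
    rw [← MonoidHom.range_eq_top, ← gammaPOmega_eq_range, hub]
  obtain ⟨α, γ, φ, σ, v, ρ, hσ, hv, hvσ, hρ, hγ, hφ, e⟩ := hx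
  have hρGO : ρ ∈ GO ⇑(plusQF m F) := by
    refine ⟨1, fun w => ?_⟩
    rw [hρ, Cfsg.Agent.Lib.Helper18.Q_reflectionMatrix_mulVec]
    simp
  obtain ⟨a, rfl⟩ := hsurj α
  have hx' : x = cGam ⇑(plusQF m F) (a⁻¹ * (gG _ ρ hρGO * gS _ hσQ σ) * a⁻¹⁻¹) := by
    rw [map_mul, map_mul, map_mul, ← lin_eq _ ρ hρGO γ hγ, ← field_eq _ hσQ σ φ hφ, ← e, map_inv,
      map_inv, map_inv]
    group
  have hr : (a⁻¹ * (gG _ ρ hρGO * gS _ hσQ σ) * a⁻¹⁻¹).1.right = σ := by
    show (a.1⁻¹ * ((gG _ ρ hρGO).1 * (gS _ hσQ σ).1) * a.1⁻¹⁻¹).right = σ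
    simp only [SemidirectProduct.mul_right, SemidirectProduct.inv_right]
    have h1 : (gG (plusQF m F) ρ hρGO).1.right = 1 := rfl
    have h2 : (gS (plusQF m F) hσQ σ).1.right = σ := rfl
    rw [h1, h2, one_mul, ringAut_comm hF _ σ, mul_assoc, inv_inv, inv_mul_cancel, mul_one]
  refine ⟨_, hx', ?_, ?_⟩
  · rw [PL_conj _ hQ hL hσQ, PL_mul _ hQ hL hσQ]
    intro h
    exact not_pres_refl _ hQ hL ρ hρGO v hv hρ (h.2 (pres_one _ hQ hL))
  · rw [hr]
    apply orderOf_eq_prime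
    · have h1 : cGam ⇑(plusQF m F) ((a⁻¹ * (gG _ ρ hρGO * gS _ hσQ σ) * a⁻¹⁻¹) ^ 2) = 1 := by
        rw [map_pow, ← hx', ← hx2, pow_orderOf_eq_one]
      have h2 := (ker_cGam _ hQ (card_idx _ hm) _ h1).1
      have h3 : ((a⁻¹ * (gG _ ρ hρGO * gS _ hσQ σ) * a⁻¹⁻¹).1 ^ 2).right = 1 := h2
      rwa [pow_right, hr] at h3
    · exact hσ

/-- conjugacy under `Inndiag` -/
theorem conj_of_rep (k : ℕ) (hk : 5 ≤ k + 1)
    (hub : Cfsg.gammaPOmega F ⇑(plusQF (k + 1) F) = ⊤)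
    (x : MulAut (Cfsg.POmega F ⇑(plusQF (k + 1) F))) (hx : GFC (k + 1) x) (hx2 : orderOf x = 2)
    (X Y : ↥(GamO ⇑(plusQF (k + 1) F))) (hxX : x = cGam ⇑(plusQF (k + 1) F) X)
    (hX : ¬ PL (plusQF (k + 1) F) X) (hY : ¬ PL (plusQF (k + 1) F) Y)
    (hr : Y.1.right = X.1.right) (hY2 : orderOf (cGam ⇑(plusQF (k + 1) F) Y) = 2) :
    Cfsg.IsConjUnder (inndiagOf ⇑(plusQF (k + 1) F)
      (Cfsg.PreservesSingularClasses ⇑(plusQF (k + 1) F))) x (cGam ⇑(plusQF (k + 1) F) Y) := by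
  have hQ : (polarBilin (plusQF (k + 1) F)).Nondegenerate := plusQF_nondegenerate (k + 1) F
  have hL : IsLagr (plusQF (k + 1) F) (stdLagr (k + 1) F) := isLagr_stdLagr
  have hσQ := hσQ_plus (F := F) (k + 1)
  have hδ : cGam ⇑(plusQF (k + 1) F) (Y * X⁻¹) ∈ inndiagOf ⇑(plusQF (k + 1) F)
      (Cfsg.PreservesSingularClasses ⇑(plusQF (k + 1) F)) := by
    unfold inndiagOf
    rw [inndiag_eq _ hQ hL]
    refine ⟨_, ⟨?_, ?_⟩, rfl⟩
    · show (Y.1 * X.1⁻¹).right = 1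
      rw [SemidirectProduct.mul_right, SemidirectProduct.inv_right, hr, mul_inv_cancel]
    · have := PL_mul _ hQ hL hσQ Y X⁻¹
      rw [PL_inv _ hQ hL hσQ] at this
      exact this.2 ⟨fun h => absurd h hY, fun h => absurd h hX⟩
  have he : cGam ⇑(plusQF (k + 1) F) (Y * X⁻¹) * x = cGam ⇑(plusQF (k + 1) F) Y := by
    rw [hxX, ← map_mul, inv_mul_cancel_right]
  have := (main_plus k hk hub x _ (Or.inr hx) Nat.prime_two hx2 hδ).1 (by rw [he, hY2])
  rw [he] at this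
  exact this

end Cfsg.Agent.Lib.Helper6.GF
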