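import Mathlib
import Cfsg.Agent.Lib.Helper6.GF.Gam
import Cfsg.Agent.Lib.Helper50.GIAbs

set_option autoImplicit false
set_option linter.unusedSectionVars false
set_option linter.unusedVariables false

/-!
# Transport along a linear isometry between coordinate spaces with different index types;
the hyperbolic form over `F` as a minus form over the fixed field of an involution
-/

namespace Cfsg.Agent.Lib.Helper6.GF

open Matrix QuadraticMap Module
open scoped MatrixGroups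
open Cfsg.Agent.Lib.Helper49 (plusQF plusQF_coe minusQF minusQF_coe)
open Cfsg.Agent.Lib.Helper6.OA (GO)
open Cfsg.Agent.Lib.Helper50.GI (glCongr glCongr_mulVec glCongr_mulVec')

section transport

variable {ι κ : Type} [Fintype ι] [DecidableEq ι] [Fintype κ] [DecidableEq κ]
  {K : Type*} [Field K]

theorem preserves_congr_aux (Q : (ι → K) → K) (Q' : (κ → K) → K) (φ : (ι → K) ≃ₗ[K] (κ → K))
    (hQ : ∀ v, Q' (φ v) = Q v) (g : Matrix ι ι K) (g' : Matrix κ κ K)
    (hgg : ∀ v, g' *ᵥ φ v = φ (g *ᵥ v))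
    (h : Cfsg.PreservesSingularClasses Q g) : Cfsg.PreservesSingularClasses Q' g' := by
  intro U' hU'
  have hU : Cfsg.IsMaxTotallySingular Q (U'.map φ.symm.toLinearMap) := by
    refine ⟨?_, fun W hW hle => ?_⟩
    · rintro _ ⟨v, hv, rfl⟩
      show Q (φ.symm v) = 0
      rw [← hQ, LinearEquiv.apply_symm_apply]
      exact hU'.1 _ hv
    · have h1 := hU'.2 (W.map φ.toLinearMap) (by
        rintro _ ⟨w, hw, rfl⟩
        show Q' (φ w) = 0
        rw [hQ]; exact hW w hw) (by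
        intro v hv
        exact ⟨φ.symm v, hle ⟨v, hv, rfl⟩, by simp⟩)
      rw [← h1]
      ext v
      simp
  have h2 := h _ hU
  unfold Cfsg.SameParityClass at h2 ⊢
  have e2 : Cfsg.imageSubmodule g (U'.map φ.symm.toLinearMap) =
      (Cfsg.imageSubmodule g' U').map φ.symm.toLinearMap := by
    unfold Cfsg.imageSubmodule
    rw [← Submodule.map_comp, ← Submodule.map_comp]
    congr 1
    apply LinearMap.ext
    intro v
    simp only [LinearMap.comp_apply, Matrix.toLin'_apply, LinearEquiv.coe_coe]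
    apply φ.injective
    rw [← hgg]
    simp
  rw [e2, ← Submodule.map_inf _ φ.symm.injective] at h2
  have e3 := LinearEquiv.finrank_map_eq φ.symm U'
  have e4 := LinearEquiv.finrank_map_eq φ.symm (U' ⊓ Cfsg.imageSubmodule g' U')
  rw [e3, e4] at h2
  exact h2

theorem preserves_congr (Q : (ι → K) → K) (Q' : (κ → K) → K) (φ : (ι → K) ≃ₗ[K] (κ → K))
    (hQ : ∀ v, Q' (φ v) = Q v) (g : GL ι K) :
    Cfsg.PreservesSingularClasses Q' ((glCongr φ g : GL κ K) : Matrix κ κ K) ↔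
      Cfsg.PreservesSingularClasses Q (g : Matrix ι ι K) := by
  constructor
  · intro h
    refine preserves_congr_aux Q' Q φ.symm (fun v => ?_) _ _ (fun v => ?_) h
    · rw [← hQ, LinearEquiv.apply_symm_apply]
    · apply φ.injective
      rw [← glCongr_mulVec]
      simp
  · intro h
    exact preserves_congr_aux Q Q' φ hQ _ _ (fun v => glCongr_mulVec φ g v) h

/-- conjugation by a linear isometry, on similarity groups -/
noncomputable def goCongr (Q : (ι → K) → K) (Q' : (κ → K) → K) (φ : (ι → K) ≃ₗ[K] (κ → K))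
    (hQ : ∀ v, Q' (φ v) = Q v) : ↥(GO Q) →* ↥(GO Q') where
  toFun g := ⟨glCongr φ g.1, by
    obtain ⟨c, hc⟩ := g.2
    refine ⟨c, fun w => ?_⟩
    obtain ⟨v, rfl⟩ := φ.surjective w
    rw [glCongr_mulVec, hQ, hQ, hc]⟩
  map_one' := Subtype.ext (map_one _)
  map_mul' a b := Subtype.ext (map_mul _ _ _)

theorem goCongr_coe (Q : (ι → K) → K) (Q' : (κ → K) → K) (φ : (ι → K) ≃ₗ[K] (κ → K))
    (hQ : ∀ v, Q' (φ v) = Q v) (g : ↥(GO Q)) : (goCongr Q Q' φ hQ g).1 = glCongr φ g.1 := rfl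

theorem goCongr_mulVec (Q : (ι → K) → K) (Q' : (κ → K) → K) (φ : (ι → K) ≃ₗ[K] (κ → K))
    (hQ : ∀ v, Q' (φ v) = Q v) (g : ↥(GO Q)) (v : ι → K) :
    ((goCongr Q Q' φ hQ g).1 : Matrix κ κ K) *ᵥ φ v = φ ((g.1 : Matrix ι ι K) *ᵥ v) :=
  glCongr_mulVec φ g.1 v

end transport

section phi

variable {F : Type*} [Field F] (n : ℕ) (ω ω' : F)

/-- the coordinate change -/
def phiFun (w : (Fin n ⊕ Fin n) ⊕ Fin 2 → F) : Fin (n + 1) ⊕ Fin (n + 1) → F :=
  Sum.elim
    (Fin.cons (w (Sum.inr 0) + ω * w (Sum.inr 1)) (fun i => w (Sum.inl (Sum.inl i))))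
    (Fin.cons (w (Sum.inr 0) + ω' * w (Sum.inr 1)) (fun i => w (Sum.inl (Sum.inr i))))

@[simp] theorem phiFun_inl_zero (w : (Fin n ⊕ Fin n) ⊕ Fin 2 → F) :
    phiFun n ω ω' w (Sum.inl 0) = w (Sum.inr 0) + ω * w (Sum.inr 1) := rfl

@[simp] theorem phiFun_inr_zero (w : (Fin n ⊕ Fin n) ⊕ Fin 2 → F) :
    phiFun n ω ω' w (Sum.inr 0) = w (Sum.inr 0) + ω' * w (Sum.inr 1) := rfl

@[simp] theorem phiFun_inl_succ (w : (Fin n ⊕ Fin n) ⊕ Fin 2 → F) (i : Fin n) :
    phiFun n ω ω' w (Sum.inl i.succ) = w (Sum.inl (Sum.inl i)) := rfl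

@[simp] theorem phiFun_inr_succ (w : (Fin n ⊕ Fin n) ⊕ Fin 2 → F) (i : Fin n) :
    phiFun n ω ω' w (Sum.inr i.succ) = w (Sum.inl (Sum.inr i)) := rfl

/-- extensionality on `Fin (n+1) ⊕ Fin (n+1)` -/
theorem ext_plus {α : Type*} {u v : Fin (n + 1) ⊕ Fin (n + 1) → α}
    (h1 : u (Sum.inl 0) = v (Sum.inl 0)) (h2 : u (Sum.inr 0) = v (Sum.inr 0))
    (h3 : ∀ i : Fin n, u (Sum.inl i.succ) = v (Sum.inl i.succ))
    (h4 : ∀ i : Fin n, u (Sum.inr i.succ) = v (Sum.inr i.succ)) : u = v := by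
  funext i
  rcases i with i | i
  · exact Fin.cases h1 h3 i
  · exact Fin.cases h2 h4 i

def phiLin : ((Fin n ⊕ Fin n) ⊕ Fin 2 → F) →ₗ[F] (Fin (n + 1) ⊕ Fin (n + 1) → F) where
  toFun := phiFun n ω ω'
  map_add' u v := by
    apply ext_plus <;> intros <;> simp <;> ring
  map_smul' c v := by
    apply ext_plus <;> intros <;> simp <;> ring

theorem phiLin_injective (h : ω ≠ ω') : Function.Injective (phiLin n ω ω') := by
  rw [← LinearMap.ker_eq_bot, LinearMap.ker_eq_bot']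
  intro w hw
  have hw' : phiFun n ω ω' w = 0 := hw
  have h1 := congrFun hw' (Sum.inl 0)
  have h2 := congrFun hw' (Sum.inr 0)
  have h3 := fun i : Fin n => congrFun hw' (Sum.inl i.succ)
  have h4 := fun i : Fin n => congrFun hw' (Sum.inr i.succ)
  simp only [phiFun_inl_zero, phiFun_inr_zero, phiFun_inl_succ, phiFun_inr_succ,
    Pi.zero_apply] at h1 h2 h3 h4
  have h5 : (ω - ω') * w (Sum.inr 1) = 0 := by linear_combination h1 - h2
  have h6 : w (Sum.inr 1) = 0 := (mul_eq_zero.1 h5).resolve_left (sub_ne_zero.2 h)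
  have h7 : w (Sum.inr 0) = 0 := by rw [h6] at h1; simpa using h1
  funext i
  rcases i with (i | i) | i
  · exact h3 i
  · exact h4 i
  · fin_cases i
    · exact h7
    · exact h6

/-- the coordinate change as a linear equivalence -/
noncomputable def phiE (h : ω ≠ ω') :
    ((Fin n ⊕ Fin n) ⊕ Fin 2 → F) ≃ₗ[F] (Fin (n + 1) ⊕ Fin (n + 1) → F) :=
  LinearEquiv.ofInjectiveOfFinrankEq (phiLin n ω ω') (phiLin_injective n ω ω' h) (by
    simp only [Module.finrank_fintype_fun_eq_card, Fintype.card_sum, Fintype.card_fin]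
    ring)

theorem phiE_apply (h : ω ≠ ω') (w : (Fin n ⊕ Fin n) ⊕ Fin 2 → F) :
    phiE n ω ω' h w = phiFun n ω ω' w := rfl

theorem plus_phiE (h : ω ≠ ω') (w : (Fin n ⊕ Fin n) ⊕ Fin 2 → F) :
    plusQF (n + 1) F (phiE n ω ω' h w) = minusQF n F (ω + ω') (ω * ω') w := by
  rw [plusQF_coe, minusQF_coe, phiE_apply]
  unfold Cfsg.quadFormPlus Cfsg.quadFormMinus
  rw [Fin.sum_univ_succ]
  simp only [phiFun_inl_zero, phiFun_inr_zero, phiFun_inl_succ, phiFun_inr_succ]
  ring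

end phi

end Cfsg.Agent.Lib.Helper6.GF
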