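import Mathlib
import Cfsg.Agent.Lib.Helper6.GF.Trans
import Cfsg.Agent.Lib.Helper74.OPsi0

set_option autoImplicit false
set_option linter.unusedSectionVars false
set_option linter.unusedVariables false

/-!
# Transport of `PΩ(Q)` along a linear isometry between coordinate spaces with different index
types, compatibly with the actions of the semisimilarity groups
-/

namespace Cfsg.Agent.Lib.Helper6.GF

open Matrix QuadraticMap Module
open scoped MatrixGroups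
open Cfsg.Agent.Lib.Helper49 (GamL GamO semiFun semiFun_mul semiFun_one semiFun_inv_semiFun
  semiFun_semiFun_inv actGL actGL_mulVec cGam cGam_mk charRestrict_apply_coe actO_apply_coe)
open Cfsg.Agent.Lib.Helper6.OA (GO)
open Cfsg.Agent.Lib.Helper50.GI (glCongr glCongr_mulVec glCongr_mulVec')
open Cfsg.Agent.Lib.Helper74.OPsi (pc pc_mk resE_coe mem_iso)

variable {ι κ : Type} [Fintype ι] [DecidableEq ι] [Fintype κ] [DecidableEq κ]
  {F : Type*} [Field F]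

theorem glCongr_symm_mulVec (φ : (ι → F) ≃ₗ[F] (κ → F)) (G : GL κ F) (v : ι → F) :
    φ (((glCongr φ).symm G).1 *ᵥ v) = G.1 *ᵥ φ v := by
  rw [← glCongr_mulVec, MulEquiv.apply_symm_apply]

/-- conjugation by `φ` as an isomorphism of isometry groups -/
noncomputable def isoC (Q : (ι → F) → F) (Q' : (κ → F) → F) (φ : (ι → F) ≃ₗ[F] (κ → F))
    (hφ : ∀ v, Q' (φ v) = Q v) :
    ↥(Cfsg.isometryGroup F Q) ≃* ↥(Cfsg.isometryGroup F Q') where
  toFun s := ⟨glCongr φ s.1, by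
    have hs := mem_iso.1 s.2
    rw [mem_iso]
    intro w
    obtain ⟨v, rfl⟩ := φ.surjective w
    rw [glCongr_mulVec, hφ, hφ, hs]⟩
  invFun s := ⟨(glCongr φ).symm s.1, by
    have hs := mem_iso.1 s.2
    rw [mem_iso]
    intro v
    rw [← hφ, glCongr_symm_mulVec, hs, hφ]⟩
  left_inv s := Subtype.ext (by simp)
  right_inv s := Subtype.ext (by simp)
  map_mul' a b := Subtype.ext (by simp)

theorem isoC_coe (Q : (ι → F) → F) (Q' : (κ → F) → F) (φ : (ι → F) ≃ₗ[F] (κ → F))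
    (hφ : ∀ v, Q' (φ v) = Q v) (s : ↥(Cfsg.isometryGroup F Q)) :
    (isoC Q Q' φ hφ s).1 = glCongr φ s.1 := rfl

/-- the transport isomorphism -/
noncomputable def psi (Q : (ι → F) → F) (Q' : (κ → F) → F) (φ : (ι → F) ≃ₗ[F] (κ → F))
    (hφ : ∀ v, Q' (φ v) = Q v) : Cfsg.POmega F Q ≃* Cfsg.POmega F Q' :=
  pc (isoC Q Q' φ hφ)

theorem psi_cGam (Q : (ι → F) → F) (Q' : (κ → F) → F) (φ : (ι → F) ≃ₗ[F] (κ → F))
    (hφ : ∀ v, Q' (φ v) = Q v) (γ : ↥(GamO Q)) (γ' : ↥(GamO Q'))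
    (h : ∀ v, semiFun γ'.1 (φ v) = φ (semiFun γ.1 v)) (t : Cfsg.POmega F Q) :
    psi Q Q' φ hφ (cGam Q γ t) = cGam Q' γ' (psi Q Q' φ hφ t) := by
  induction t using QuotientGroup.induction_on with
  | H s =>
    unfold psi
    rw [cGam_mk, pc_mk, pc_mk, cGam_mk]
    congr 1
    apply Subtype.ext
    apply Subtype.ext
    rw [charRestrict_apply_coe, actO_apply_coe, resE_coe, resE_coe]
    show glCongr φ (actGL γ.1 s.1.1) = actGL γ'.1 (glCongr φ s.1.1)
    apply Units.ext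
    apply Matrix.mulVec_injective
    funext w
    obtain ⟨v, rfl⟩ : ∃ v, w = semiFun γ'.1 (φ v) :=
      ⟨φ.symm (semiFun γ'.1⁻¹ w), by rw [LinearEquiv.apply_symm_apply, semiFun_semiFun_inv]⟩
    rw [actGL_mulVec, glCongr_mulVec, h, glCongr_mulVec, actGL_mulVec, h]

/-- the induced isomorphism of automorphism groups -/
noncomputable def psiC (Q : (ι → F) → F) (Q' : (κ → F) → F) (φ : (ι → F) ≃ₗ[F] (κ → F))
    (hφ : ∀ v, Q' (φ v) = Q v) : MulAut (Cfsg.POmega F Q) ≃* MulAut (Cfsg.POmega F Q') :=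
  MulAut.congr (psi Q Q' φ hφ)

theorem psiC_cGam (Q : (ι → F) → F) (Q' : (κ → F) → F) (φ : (ι → F) ≃ₗ[F] (κ → F))
    (hφ : ∀ v, Q' (φ v) = Q v) (γ : ↥(GamO Q)) (γ' : ↥(GamO Q'))
    (h : ∀ v, semiFun γ'.1 (φ v) = φ (semiFun γ.1 v)) :
    psiC Q Q' φ hφ (cGam Q γ) = cGam Q' γ' := by
  ext t
  obtain ⟨s, rfl⟩ := (psi Q Q' φ hφ).surjective t
  rw [← psi_cGam Q Q' φ hφ γ γ' h]
  show psi Q Q' φ hφ (cGam Q γ ((psi Q Q' φ hφ).symm (psi Q Q' φ hφ s))) = _
  rw [MulEquiv.symm_apply_apply]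

end Cfsg.Agent.Lib.Helper6.GF
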