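import Mathlib
import Cfsg.Agent.Lib.Helper6.GF.Psi
import Cfsg.Agent.Lib.Helper59.OMinus.Cent

set_option autoImplicit false
set_option linter.unusedSectionVars false
set_option linter.unusedVariables false

/-!
# The centraliser of the standard involutory graph-field automorphism of `PΩ⁺`
-/

namespace Cfsg.Agent.Lib.Helper6.GF

open Matrix QuadraticMap Module
open scoped MatrixGroups
open Cfsg.Agent.Lib.Helper49 (GamL GamO semiFun semiFun_inl cGam goIncl goIncl_coe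
  plusQF plusQF_coe minusQF minusQF_coe plusQF_nondegenerate isLagr_stdLagr IsLagr)
open Cfsg.Agent.Lib.Helper6.OA (GO cG inndiagOf inndiagOf_eq_map clsHom clsHom_eq_one_iff clsHom_sc
  bcHom bcHom_coe rat minus_compat isLagr_minus sc preservesMinus_iff_K minus_nd minus_hv)
open Cfsg.Agent.Lib.Helper50.GI (glCongr glCongr_mulVec glCongr_mulVec')
open Cfsg.Agent.Lib.Helper59.OMinus (cG_eq_cGam fs fl Th Th_apply map_Th_eq cent_equiv)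

section general

variable {ι κ : Type} [Fintype ι] [DecidableEq ι] [Fintype κ] [DecidableEq κ]
  {F : Type*} [Field F]

theorem semiFun_goIncl (Q : (ι → F) → F) (g : ↥(GO Q)) (v : ι → F) :
    semiFun (goIncl Q g).1 v = (g.1 : Matrix ι ι F) *ᵥ v := by
  rw [goIncl_coe, semiFun_inl]

variable (Q : (ι → F) → F) (Q' : (κ → F) → F) (φ : (ι → F) ≃ₗ[F] (κ → F))
    (hφ : ∀ v, Q' (φ v) = Q v)

theorem psiC_cG (g : ↥(GO Q)) :
    psiC Q Q' φ hφ (cG Q g) = cG Q' (goCongr Q Q' φ hφ g) := by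
  rw [cG_eq_cGam, cG_eq_cGam]
  apply psiC_cGam
  intro v
  rw [semiFun_goIncl, semiFun_goIncl, goCongr_mulVec]

theorem goCongr_surjective : Function.Surjective (goCongr Q Q' φ hφ) := by
  intro G
  obtain ⟨c, hc⟩ := G.2
  refine ⟨⟨(glCongr φ).symm G.1, ⟨c, fun v => ?_⟩⟩, Subtype.ext ?_⟩
  · rw [← hφ, glCongr_symm_mulVec, hc, hφ]
  · rw [goCongr_coe]
    simp

theorem map_psiC {C C' : Type*} [Group C] [Group C'] (Ψ : ↥(GO Q) →* C) (Ψ' : ↥(GO Q') →* C')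
    (h : ∀ g, Ψ g = 1 ↔ Cfsg.PreservesSingularClasses Q (g.1 : Matrix ι ι F))
    (h' : ∀ g, Ψ' g = 1 ↔ Cfsg.PreservesSingularClasses Q' (g.1 : Matrix κ κ F)) :
    (Ψ.ker.map (cG Q)).map (psiC Q Q' φ hφ).toMonoidHom = Ψ'.ker.map (cG Q') := by
  ext y
  constructor
  · rintro ⟨_, ⟨g, hg, rfl⟩, rfl⟩
    refine ⟨goCongr Q Q' φ hφ g, ?_, (psiC_cG Q Q' φ hφ g).symm⟩
    show Ψ' _ = 1
    rw [h', goCongr_coe, preserves_congr Q Q' φ hφ, ← h]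
    exact hg
  · rintro ⟨G, hG, rfl⟩
    obtain ⟨g, rfl⟩ := goCongr_surjective Q Q' φ hφ G
    refine ⟨cG Q g, ⟨g, ?_, rfl⟩, psiC_cG Q Q' φ hφ g⟩
    show Ψ g = 1
    rw [h, ← preserves_congr Q Q' φ hφ, ← goCongr_coe Q Q' φ hφ, ← h']
    exact hG

end general

theorem map_inf_centralizer {A B : Type*} [Group A] [Group B] (e : A ≃* B) (H : Subgroup A)
    (x : A) : (H ⊓ Subgroup.centralizer {x}).map e.toMonoidHom =
      H.map e.toMonoidHom ⊓ Subgroup.centralizer {e x} := by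
  ext y
  constructor
  · rintro ⟨a, ⟨h1, h2⟩, rfl⟩
    refine ⟨⟨a, h1, rfl⟩, ?_⟩
    have h2' := Subgroup.mem_centralizer_singleton_iff.1 h2
    apply Subgroup.mem_centralizer_singleton_iff.2
    show e a * e x = e x * e a
    rw [← map_mul, ← map_mul, h2']
  · rintro ⟨⟨a, h1, rfl⟩, h2⟩
    refine ⟨a, ⟨h1, ?_⟩, rfl⟩
    have h2' := Subgroup.mem_centralizer_singleton_iff.1 h2
    apply Subgroup.mem_centralizer_singleton_iff.2
    apply e.injective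
    rw [map_mul, map_mul]
    exact h2'

section main

variable {F F₀ : Type*} [Field F] [Fintype F] [Field F₀] [Fintype F₀] [Algebra F₀ F]
  (n : ℕ) (σ : F ≃+* F) (ω : F) (a₀ b₀ : F₀)

/-- the standing data -/
structure Dat : Prop where
  hn : 4 ≤ n
  ord : orderOf σ = 2
  inv : ∀ x, σ (σ x) = x
  fix : ∀ x, σ x = x ↔ x ∈ Set.range (algebraMap F₀ F)
  ne : ω ≠ σ ω
  ha : algebraMap F₀ F a₀ = ω + σ ω
  hb : algebraMap F₀ F b₀ = ω * σ ω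
  ani : ∀ z₁ z₂ : F₀, z₁ ^ 2 + a₀ * z₁ * z₂ + b₀ * z₂ ^ 2 = 0 → z₁ = 0 ∧ z₂ = 0
  rk : Module.finrank F₀ F = 2

variable {n σ ω a₀ b₀} (d : Dat n σ ω a₀ b₀)

namespace Dat

include d

/-- the coordinate change -/
noncomputable def phi (d : Dat n σ ω a₀ b₀) :
    ((Fin n ⊕ Fin n) ⊕ Fin 2 → F) ≃ₗ[F] (Fin (n + 1) ⊕ Fin (n + 1) → F) :=
  phiE n ω (σ ω) d.ne

theorem hphi (w : (Fin n ⊕ Fin n) ⊕ Fin 2 → F) :
    plusQF (n + 1) F (d.phi w) =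
      minusQF n F (algebraMap F₀ F a₀) (algebraMap F₀ F b₀) w := by
  rw [d.ha, d.hb]
  exact plus_phiE n ω (σ ω) d.ne w

theorem hsig (v : (Fin n ⊕ Fin n) ⊕ Fin 2 → F) :
    minusQF n F (algebraMap F₀ F a₀) (algebraMap F₀ F b₀) (fun i => σ (v i)) =
      σ (minusQF n F (algebraMap F₀ F a₀) (algebraMap F₀ F b₀) v) :=
  Cfsg.Agent.Lib.Helper66.OLang.sv_minus σ _ _ ((d.fix _).2 ⟨_, rfl⟩) ((d.fix _).2 ⟨_, rfl⟩) v

theorem semiFun_fs (v : (Fin n ⊕ Fin n) ⊕ Fin 2 → F) :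
    semiFun (fs ⇑(minusQF n F (algebraMap F₀ F a₀) (algebraMap F₀ F b₀)) σ d.hsig).1 v =
      fun i => σ (v i) := by
  show (1 : GL ((Fin n ⊕ Fin n) ⊕ Fin 2) F).1 *ᵥ (fun i => σ (v i)) = _
  simp

theorem tau_phi (v : (Fin n ⊕ Fin n) ⊕ Fin 2 → F) :
    semiFun (X1 n σ).1 (d.phi v) = d.phi (fun i => σ (v i)) := by
  rw [semiFun_X1]
  apply ext_plus
  · show σ (phiFun n ω (σ ω) v (Equiv.swap (Sum.inl 0) (Sum.inr 0) (Sum.inl 0))) = _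
    rw [Equiv.swap_apply_left]
    show _ = phiFun n ω (σ ω) (fun i => σ (v i)) (Sum.inl 0)
    simp [d.inv]
  · show σ (phiFun n ω (σ ω) v (Equiv.swap (Sum.inl 0) (Sum.inr 0) (Sum.inr 0))) = _
    rw [Equiv.swap_apply_right]
    show _ = phiFun n ω (σ ω) (fun i => σ (v i)) (Sum.inr 0)
    simp
  · intro i
    show σ (phiFun n ω (σ ω) v (Equiv.swap (Sum.inl 0) (Sum.inr 0) (Sum.inl i.succ))) = _
    rw [Equiv.swap_apply_of_ne_of_ne (by simp [Fin.succ_ne_zero]) (by simp)]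
    rfl
  · intro i
    show σ (phiFun n ω (σ ω) v (Equiv.swap (Sum.inl 0) (Sum.inr 0) (Sum.inr i.succ))) = _
    rw [Equiv.swap_apply_of_ne_of_ne (by simp) (by simp [Fin.succ_ne_zero])]
    rfl

/-- the transport of automorphism groups -/
noncomputable def PC (d : Dat n σ ω a₀ b₀) :
    MulAut (Cfsg.POmega F ⇑(minusQF n F (algebraMap F₀ F a₀) (algebraMap F₀ F b₀))) ≃*
      MulAut (Cfsg.POmega F ⇑(plusQF (n + 1) F)) :=
  psiC _ _ d.phi d.hphi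

theorem PC_fl : d.PC (fl ⇑(minusQF n F (algebraMap F₀ F a₀) (algebraMap F₀ F b₀)) σ d.hsig) =
    cGam ⇑(plusQF (n + 1) F) (X1 n σ) := by
  apply psiC_cGam
  intro v
  rw [d.tau_phi, d.semiFun_fs]

/-- `GO⁻(F₀) → GO⁺(F)` -/
noncomputable def T0 (d : Dat n σ ω a₀ b₀) :
    ↥(GO ⇑(minusQF n F₀ a₀ b₀)) →* ↥(GO ⇑(plusQF (n + 1) F)) :=
  (goCongr _ _ d.phi d.hphi).comp (bcHom (minus_compat (m := n) (a := a₀) (b := b₀) F))

theorem T0_apply (g₀ : ↥(GO ⇑(minusQF n F₀ a₀ b₀))) :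
    d.T0 g₀ = goCongr _ _ d.phi d.hphi
      (bcHom (minus_compat (m := n) (a := a₀) (b := b₀) F) g₀) := rfl

theorem exists_lagr :
    (polarBilin (minusQF n F (algebraMap F₀ F a₀) (algebraMap F₀ F b₀))).Nondegenerate ∧
      ∃ L, IsLagr (minusQF n F (algebraMap F₀ F a₀) (algebraMap F₀ F b₀)) L := by
  have := isLagr_minus n (α := -ω) (β := -σ ω) (a := algebraMap F₀ F a₀)
    (b := algebraMap F₀ F b₀) (by rw [d.ha]; ring) (by rw [d.hb]; ring)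
    (by intro h; exact d.ne (neg_injective h))
  exact ⟨this.1, _, this.2⟩

theorem card_idx_minus : 7 ≤ Fintype.card ((Fin n ⊕ Fin n) ⊕ Fin 2) := by
  have := d.hn
  simp only [Fintype.card_sum, Fintype.card_fin]; omega

set_option maxHeartbeats 3200000 in
/-- the common core: a character `Ψ₀` of `GO⁻(F₀)` cutting out the class-preserving similarities,
with the description of the centraliser -/
theorem core : ∃ Ψ₀ : ↥(GO ⇑(minusQF n F₀ a₀ b₀)) →* Multiplicative (ZMod 2),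
    (∀ g₀, Ψ₀ g₀ = 1 ↔ Cfsg.PreservesSingularClassesMinus n a₀ b₀
      (g₀.1 : Matrix ((Fin n ⊕ Fin n) ⊕ Fin 2) ((Fin n ⊕ Fin n) ⊕ Fin 2) F₀)) ∧
    (∀ g₀, Ψ₀ g₀ = 1 ↔ Cfsg.PreservesSingularClasses ⇑(plusQF (n + 1) F)
      ((d.T0 g₀).1 : Matrix (Fin (n + 1) ⊕ Fin (n + 1)) (Fin (n + 1) ⊕ Fin (n + 1)) F)) ∧
    inndiagOf ⇑(plusQF (n + 1) F) (Cfsg.PreservesSingularClasses ⇑(plusQF (n + 1) F)) ⊓
      Subgroup.centralizer {cGam ⇑(plusQF (n + 1) F) (X1 n σ)} =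
        Ψ₀.ker.map ((cG ⇑(plusQF (n + 1) F)).comp d.T0) ∧
    Nonempty (↥(inndiagOf ⇑(plusQF (n + 1) F)
      (Cfsg.PreservesSingularClasses ⇑(plusQF (n + 1) F)) ⊓
      Subgroup.centralizer {cGam ⇑(plusQF (n + 1) F) (X1 n σ)}) ≃*
      ↥(inndiagOf ⇑(minusQF n F₀ a₀ b₀) (Cfsg.PreservesSingularClassesMinus n a₀ b₀))) := by
  obtain ⟨hnd, L, hL⟩ := d.exists_lagr
  have hc := minus_compat (m := n) (a := a₀) (b := b₀) F
  have hn3 : 3 ≤ n := by have := d.hn; omega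
  obtain ⟨Ψ, hΨ⟩ : ∃ Ψ, Ψ = clsHom hnd hL := ⟨_, rfl⟩
  obtain ⟨Ψ₀, hΨ₀⟩ : ∃ Ψ₀, Ψ₀ = Ψ.comp (bcHom hc) := ⟨_, rfl⟩
  have hΨ1 : ∀ g, Ψ g = 1 ↔ Cfsg.PreservesSingularClasses
      ⇑(minusQF n F (algebraMap F₀ F a₀) (algebraMap F₀ F b₀))
      (g.1 : Matrix ((Fin n ⊕ Fin n) ⊕ Fin 2) ((Fin n ⊕ Fin n) ⊕ Fin 2) F) := by
    intro g
    rw [hΨ, clsHom_eq_one_iff]
  have hP : ∀ g₀, Ψ₀ g₀ = 1 ↔ Cfsg.PreservesSingularClassesMinus n a₀ b₀
      (g₀.1 : Matrix ((Fin n ⊕ Fin n) ⊕ Fin 2) ((Fin n ⊕ Fin n) ⊕ Fin 2) F₀) := by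
    intro g₀
    rw [hΨ₀, MonoidHom.comp_apply, hΨ1, bcHom_coe, minusQF_coe,
      preservesMinus_iff_K hn3 d.ani F d.rk]
  have hcompat : ∀ g₀, Ψ (bcHom hc g₀) = Ψ₀ g₀ := by
    intro g₀
    rw [hΨ₀]
    rfl
  have hsc : ∀ c, Ψ (sc _ c) = 1 := by
    intro c
    rw [hΨ, clsHom_sc]
  have h1 := map_Th_eq hc σ d.hsig hnd d.card_idx_minus (minus_hv a₀ b₀) d.fix 2 (by norm_num)
    d.ord Ψ Ψ₀ hcompat hsc
  have h2 := map_psiC _ _ d.phi d.hphi Ψ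
    (clsHom (plusQF_nondegenerate (n + 1) F) isLagr_stdLagr) hΨ1
    (fun g => clsHom_eq_one_iff _ _ g)
  have h3 := map_inf_centralizer d.PC (Ψ.ker.map (cG _))
    (fl ⇑(minusQF n F (algebraMap F₀ F a₀) (algebraMap F₀ F b₀)) σ d.hsig)
  rw [d.PC_fl] at h3
  have h2' : (Ψ.ker.map (cG _)).map d.PC.toMonoidHom = inndiagOf ⇑(plusQF (n + 1) F)
      (Cfsg.PreservesSingularClasses ⇑(plusQF (n + 1) F)) := by
    rw [Cfsg.Agent.Lib.Helper6.OA.inndiagOf_plus_eq_ker]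
    exact h2
  rw [h2'] at h3
  refine ⟨Ψ₀, hP, ?_, ?_, ?_⟩
  · intro g₀
    rw [d.T0_apply, goCongr_coe, preserves_congr _ _ d.phi d.hphi, ← hΨ1, hcompat]
  · rw [← h3, ← h1, Subgroup.map_map]
    congr 1
    ext1 g₀
    exact psiC_cG _ _ d.phi d.hphi _
  · obtain ⟨e⟩ := cent_equiv hc σ d.hsig hnd (minus_nd d.ani) d.card_idx_minus (minus_hv a₀ b₀)
      d.fix 2 (by norm_num) d.ord Ψ Ψ₀ hcompat hsc
    have e4 : inndiagOf ⇑(minusQF n F₀ a₀ b₀) (Cfsg.PreservesSingularClassesMinus n a₀ b₀) =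
        Ψ₀.ker.map (cG _) :=
      inndiagOf_eq_map _ _ _ (fun g => by rw [MonoidHom.mem_ker, hP])
    rw [e4, ← h3]
    exact ⟨(d.PC.subgroupMap _).symm.trans e⟩

end Dat

end main

end Cfsg.Agent.Lib.Helper6.GF
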