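import Mathlib
import Cfsg.Agent.Lib.Helper6.GF.Cent

set_option autoImplicit false
set_option linter.unusedSectionVars false
set_option linter.unusedVariables false

/-!
# Descent to the fixed field, multipliers, and the construction of the data
-/

namespace Cfsg.Agent.Lib.Helper6.GF

open Matrix QuadraticMap Module
open scoped MatrixGroups
open Cfsg.Agent.Lib.Helper49 (GamL GamO semiFun semiFun_inl cGam goIncl goIncl_coe map_mulVec'
  plusQF plusQF_coe minusQF minusQF_coe plusQF_nondegenerate isLagr_stdLagr IsLagr)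
open Cfsg.Agent.Lib.Helper6.OA (GO cG bcHom bcHom_coe bcHom_sc rat minus_compat sc sc_coe mu mu_unique
  mu_spec mu_bc bc minus_hv plus_hv eq_of_coe_eq)
open Cfsg.Agent.Lib.Helper18.AutPSL (mp mp_eq_map exists_subfield_emb)
open Cfsg.Agent.Lib.Helper59.OMinus (exists_descent)

section main

variable {F F₀ : Type*} [Field F] [Fintype F] [Field F₀] [Fintype F₀] [Algebra F₀ F]
  {n : ℕ} {σ : F ≃+* F} {ω : F} {a₀ b₀ : F₀} (d : Dat n σ ω a₀ b₀)

namespace Dat

include d

theorem T0_mulVec (g₀ : ↥(GO ⇑(minusQF n F₀ a₀ b₀))) (w : (Fin n ⊕ Fin n) ⊕ Fin 2 → F) :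
    (d.T0 g₀).1.1 *ᵥ d.phi w = d.phi ((g₀.1.1.map (algebraMap F₀ F)) *ᵥ w) := by
  rw [d.T0_apply, goCongr_mulVec, bcHom_coe]

/-- exact descent: a similarity commuting with the semilinear involution comes from `F₀` -/
theorem exists_T0_eq (G : ↥(GO ⇑(plusQF (n + 1) F)))
    (h : ∀ v, G.1.1 *ᵥ semiFun (X1 n σ).1 v = semiFun (X1 n σ).1 (G.1.1 *ᵥ v)) :
    ∃ g₀, d.T0 g₀ = G := by
  obtain ⟨g, rfl⟩ := goCongr_surjective _ _ d.phi d.hphi G
  have hfix : mp σ g.1.1 = g.1.1 := by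
    apply Matrix.mulVec_injective
    funext w
    obtain ⟨w', rfl⟩ : ∃ w', w = fun i => σ (w' i) := ⟨fun i => σ.symm (w i), by simp⟩
    rw [mp_eq_map, ← map_mulVec']
    apply d.phi.injective
    rw [← d.tau_phi, ← goCongr_mulVec _ _ d.phi d.hphi, ← h, d.tau_phi, goCongr_mulVec]
  obtain ⟨g₀, e⟩ := exists_descent (minus_compat (m := n) (a := a₀) (b := b₀) F)
    (minus_hv a₀ b₀) σ d.fix g hfix
  exact ⟨g₀, by rw [d.T0_apply, e]⟩

theorem T0_sc (t : F₀ˣ) : d.T0 (sc _ t) =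
    sc (plusQF (n + 1) F) (Units.map (algebraMap F₀ F : F₀ →* F) t) := by
  apply eq_of_coe_eq
  apply Matrix.mulVec_injective
  funext w
  obtain ⟨w', rfl⟩ := d.phi.surjective w
  rw [d.T0_apply, goCongr_mulVec, bcHom_sc, sc_coe, sc_coe, Matrix.smul_mulVec, Matrix.smul_mulVec,
    Matrix.one_mulVec, Matrix.one_mulVec, map_smul]

theorem mu_T0 (hv : ∃ v, plusQF (n + 1) F v ≠ 0) (g₀ : ↥(GO ⇑(minusQF n F₀ a₀ b₀))) :
    mu (plusQF (n + 1) F) hv (d.T0 g₀) =
      Units.map (algebraMap F₀ F : F₀ →* F) (mu _ (minus_hv a₀ b₀) g₀) := by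
  apply Units.ext
  apply mu_unique
  intro w
  obtain ⟨w', rfl⟩ := d.phi.surjective w
  rw [d.T0_apply, goCongr_mulVec, d.hphi, d.hphi]
  have h1 := mu_bc (minus_compat (m := n) (a := a₀) (b := b₀) F) (minus_hv a₀ b₀)
    (minus_hv _ _) g₀
  have h2 := mu_spec _ (minus_hv (m := n) (algebraMap F₀ F a₀) (algebraMap F₀ F b₀))
    (bc (minus_compat (m := n) (a := a₀) (b := b₀) F) g₀) w'
  rw [h1] at h2
  exact h2

end Dat

end main

/-- construction of the data from an automorphism of order two -/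
theorem exists_dat {F F₀ : Type*} [Field F] [Fintype F] [Field F₀] [Fintype F₀] {p f : ℕ}
    [Fact p.Prime] (hF : Fintype.card F = p ^ f) (hF₀ : Fintype.card F₀ = p ^ (f / 2)) {n : ℕ}
    (hn : 4 ≤ n) (σ : F ≃+* F) (hσ : orderOf σ = 2) :
    ∃ (A : Algebra F₀ F) (ω : F) (a₀ b₀ : F₀), @Dat F F₀ _ _ A n σ ω a₀ b₀ := by
  obtain ⟨h2f, hemb⟩ := exists_subfield_emb hF σ hσ (by norm_num)
  obtain ⟨j, hj⟩ := hemb F₀ hF₀
  obtain ⟨A, hA⟩ : ∃ A : Algebra F₀ F, @algebraMap F₀ F _ _ A = j := ⟨j.toAlgebra, rfl⟩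
  have hinv : ∀ x, σ (σ x) = x := by
    intro x
    have h1 : σ ^ 2 = 1 := by rw [← hσ]; exact pow_orderOf_eq_one σ
    have h2 := congrArg (fun s : F ≃+* F => s x) h1
    simpa [pow_two] using h2
  have hne1 : σ ≠ 1 := by
    intro h
    rw [h, orderOf_one] at hσ
    omega
  obtain ⟨ω, hω⟩ : ∃ ω, ω ≠ σ ω := by
    by_contra hcon
    push Not at hcon
    apply hne1
    ext x
    exact (hcon x).symm
  obtain ⟨a₀, ha₀⟩ := (hj (ω + σ ω)).1 (by rw [map_add, hinv, add_comm])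
  obtain ⟨b₀, hb₀⟩ := (hj (ω * σ ω)).1 (by rw [map_mul, hinv, mul_comm])
  refine ⟨A, ω, a₀, b₀, ⟨hn, hσ, hinv, by rw [hA]; exact hj, hω, by rw [hA]; exact ha₀,
    by rw [hA]; exact hb₀, ?_, ?_⟩⟩
  · intro z₁ z₂ h
    have h1 : (j z₁ + ω * j z₂) * (j z₁ + σ ω * j z₂) = 0 := by
      have h2 := congrArg j h
      rw [map_zero, map_add, map_add, map_mul, map_mul, map_mul, map_pow, map_pow, ha₀, hb₀] at h2
      linear_combination h2
    have key : ∀ θ : F, θ ≠ σ θ → j z₁ + θ * j z₂ = 0 → z₁ = 0 ∧ z₂ = 0 := by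
      intro θ hθ h3
      have hz2 : z₂ = 0 := by
        by_contra hz
        apply hθ
        have hjz : j z₂ ≠ 0 := by
          intro h0
          exact hz (j.injective (by rw [h0, map_zero]))
        have h4 : θ = j (-z₁ / z₂) := by
          rw [map_div₀, map_neg]
          field_simp
          linear_combination h3
        exact ((hj θ).2 ⟨_, h4.symm⟩).symm
      refine ⟨?_, hz2⟩
      rw [hz2, map_zero, mul_zero, add_zero] at h3
      exact j.injective (by rw [h3, map_zero])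
    rcases mul_eq_zero.1 h1 with h3 | h3
    · exact key ω hω h3
    · exact key (σ ω) (by rw [hinv]; exact hω.symm) h3
  · have h1 := Module.card_eq_pow_finrank (K := F₀) (V := F)
    rw [hF, hF₀, ← pow_mul] at h1
    have h2 := Nat.pow_right_injective (Fact.out : p.Prime).two_le h1
    obtain ⟨k, rfl⟩ := h2f
    have hk : k ≠ 0 := by
      rintro rfl
      rw [mul_zero, pow_zero] at hF
      have := Fintype.one_lt_card (α := F)
      omega
    rw [Nat.mul_div_cancel_left _ (by norm_num : 0 < 2), mul_comm 2 k] at h2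
    exact (Nat.eq_of_mul_eq_mul_left (Nat.pos_of_ne_zero hk) h2).symm

end Cfsg.Agent.Lib.Helper6.GF
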