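import Mathlib
import Cfsg.Agent.Lib.Helper6.GF.Cent

set_option autoImplicit false
set_option linter.unusedSectionVars false
set_option linter.unusedVariables false

/-!
# Isometries over the fixed field have trivial `ν`-sign over the big field
-/

namespace Cfsg.Agent.Lib.Helper6.GF

open Matrix QuadraticMap Module
open scoped MatrixGroups
open Cfsg.Agent.Lib.Helper49 (semiFun plusQF plusQF_coe minusQF)
open Cfsg.Agent.Lib.Helper6.OA (GO sc iO iO_coe Setup bcHom_iO_refl eq_of_coe_eq rat minus_compat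
  minus_nd isSquare_algebraMap)
open Cfsg.Agent.Lib.Helper18 (sgn refl mat_refl reflectionMatrix_mulVec reflSet
  closure_reflSet_eq_top sgn_pair_refl_sq)

variable {F F₀ : Type*} [Field F] [Fintype F] [Field F₀] [Fintype F₀] [Algebra F₀ F]
    {n : ℕ} {σ : F ≃+* F} {ω : F} {a₀ b₀ : F₀}

theorem Dat.polar_phi (d : Dat n σ ω a₀ b₀) (x y : (Fin n ⊕ Fin n) ⊕ Fin 2 → F) :
    polar ⇑(plusQF (n + 1) F) (d.phi x) (d.phi y) =
      polar ⇑(minusQF n F (algebraMap F₀ F a₀) (algebraMap F₀ F b₀)) x y := by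
  unfold polar
  rw [← map_add, d.hphi, d.hphi, d.hphi]

theorem Dat.T0_refl (d : Dat n σ ω a₀ b₀) (v : (Fin n ⊕ Fin n) ⊕ Fin 2 → F₀) :
    d.T0 (iO (minusQF n F₀ a₀ b₀) (refl (minusQF n F₀ a₀ b₀) v)) =
      iO (plusQF (n + 1) F) (refl (plusQF (n + 1) F) (d.phi (rat F v))) := by
  rw [d.T0_apply, bcHom_iO_refl]
  apply eq_of_coe_eq
  apply Matrix.mulVec_injective
  funext w
  obtain ⟨w', rfl⟩ := d.phi.surjective w
  rw [goCongr_mulVec, iO_coe, iO_coe, mat_refl, mat_refl, reflectionMatrix_mulVec,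
    reflectionMatrix_mulVec, map_sub, map_smul, d.hphi, d.polar_phi]

theorem T0_iO (d : Dat n σ ω a₀ b₀)
    {ν : Fˣ} {D : ↥(GO ⇑(plusQF (n + 1) F))} (S : Setup (plusQF (n + 1) F) (n + 1) ν D)
    (h₀ : ↥(Cfsg.isometryGroup F₀ ⇑(minusQF n F₀ a₀ b₀))) :
    ∃ h : ↥(Cfsg.isometryGroup F ⇑(plusQF (n + 1) F)),
      d.T0 (iO (minusQF n F₀ a₀ b₀) h₀) = iO (plusQF (n + 1) F) h ∧
      sgn ⇑(plusQF (n + 1) F) ν h = 1 := by
  have h2₀ : (2 : F₀) ≠ 0 := by
    intro h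
    apply S.h2
    have := congrArg (algebraMap F₀ F) h
    rw [map_ofNat, map_zero] at this
    exact this
  have hm : h₀ ∈ Subgroup.closure (reflSet (minusQF n F₀ a₀ b₀)) := by
    rw [closure_reflSet_eq_top _ h2₀ (minus_nd d.ani)]
    exact Subgroup.mem_top _
  induction hm using Subgroup.closure_induction with
  | mem x hx =>
    obtain ⟨v, hv, rfl⟩ := hx
    refine ⟨_, d.T0_refl v, ?_⟩
    obtain ⟨r, hr⟩ := isSquare_algebraMap d.rk h2₀ (minusQF n F₀ a₀ b₀ v)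
    have hr0 : r ≠ 0 := by
      rintro rfl
      rw [mul_zero] at hr
      exact hv ((algebraMap F₀ F).injective (by rw [hr, map_zero]))
    exact (sgn_pair_refl_sq _ S.h2 S.nsq hr0 (by
      rw [d.hphi, minus_compat, hr, pow_two])).2
  | one => exact ⟨1, by simp, by simp⟩
  | mul x y _ _ hx hy =>
    obtain ⟨a, a1, a2⟩ := hx
    obtain ⟨b, b1, b2⟩ := hy
    exact ⟨a * b, by rw [map_mul, map_mul, a1, b1, map_mul], by rw [map_mul, a2, b2, one_mul]⟩
  | inv x _ hx =>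
    obtain ⟨a, a1, a2⟩ := hx
    exact ⟨a⁻¹, by rw [map_inv, map_inv, a1, map_inv], by rw [map_inv, a2, inv_one]⟩

end Cfsg.Agent.Lib.Helper6.GF
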