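import Mathlib
import Cfsg.Agent.Lib.Helper6.GF.Cent
import Cfsg.Agent.Lib.Helper49.LeviOmega

set_option autoImplicit false
set_option linter.unusedSectionVars false
set_option linter.unusedVariables false

/-!
# The diagonal similarity `D₀` commuting with the graph-field involution
-/

namespace Cfsg.Agent.Lib.Helper6.GF

open Matrix QuadraticMap Module
open scoped MatrixGroups
open Cfsg.Agent.Lib.Helper49 (semiFun plusQF plusQF_coe minusQF leviHom leviHom_coe leviMat
  plusQF_nondegenerate isLagr_stdLagr mem_stdLagr)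
open Cfsg.Agent.Lib.Helper6.OA (GO sc sc_coe iO iO_coe coe_mul' preserves_of_map_eq lin_coe)

theorem exists_D0 {F : Type*} [Field F] [Fintype F] (n : ℕ) (hn : 1 ≤ n) (σ : F ≃+* F)
    (hσ : ∀ x, σ (σ x) = x) (u lam ν : F) (hu : u * σ u = ν) (hl : lam * lam = ν) (hν : ν ≠ 0) :
    ∃ (D₀ : ↥(GO ⇑(plusQF (n + 1) F))) (A : GL (Fin (n + 1)) F) (l : Fˣ),
      (∀ v, D₀.1.1 *ᵥ semiFun (X1 n σ).1 v = semiFun (X1 n σ).1 (D₀.1.1 *ᵥ v)) ∧
      Cfsg.PreservesSingularClasses ⇑(plusQF (n + 1) F) D₀.1.1 ∧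
      (∀ v, plusQF (n + 1) F (D₀.1.1 *ᵥ v) = ν * plusQF (n + 1) F v) ∧
      D₀ = sc (plusQF (n + 1) F) l * iO (plusQF (n + 1) F) (leviHom (n + 1) F A) ∧
      A.1.det = u * lam ^ (n - 1) := by
  have hu0 : u ≠ 0 := by
    rintro rfl
    exact hν (by rw [← hu, zero_mul])
  have hl0 : lam ≠ 0 := by
    rintro rfl
    exact hν (by rw [← hl, zero_mul])
  have hσν : σ ν = ν := by rw [← hu, map_mul, hσ, mul_comm]
  obtain ⟨a, ha⟩ : ∃ a : Fin (n + 1) → F, a = Fin.cons (u / lam) (fun _ => lam) := ⟨_, rfl⟩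
  have ha0 : a 0 = u / lam := by rw [ha]; rfl
  have has : ∀ i : Fin n, a i.succ = lam := by intro i; rw [ha]; rfl
  have hane : ∀ i, a i ≠ 0 := by
    intro i
    refine Fin.cases ?_ (fun i => ?_) i
    · rw [ha0]; exact div_ne_zero hu0 hl0
    · rw [has]; exact hl0
  have hmul1 : Matrix.diagonal a * Matrix.diagonal (fun i => (a i)⁻¹) = 1 := by
    rw [Matrix.diagonal_mul_diagonal, ← Matrix.diagonal_one]
    congr 1
    funext i
    exact mul_inv_cancel₀ (hane i)
  have hmul2 : Matrix.diagonal (fun i => (a i)⁻¹) * Matrix.diagonal a = 1 := by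
    rw [Matrix.diagonal_mul_diagonal, ← Matrix.diagonal_one]
    congr 1
    funext i
    exact inv_mul_cancel₀ (hane i)
  obtain ⟨A, hA⟩ : ∃ A : GL (Fin (n + 1)) F, A.1 = Matrix.diagonal a :=
    ⟨⟨Matrix.diagonal a, Matrix.diagonal (fun i => (a i)⁻¹), hmul1, hmul2⟩, rfl⟩
  obtain ⟨D₀, hD₀⟩ : ∃ D₀, D₀ = sc (plusQF (n + 1) F) (Units.mk0 lam hl0) *
      iO (plusQF (n + 1) F) (leviHom (n + 1) F A) := ⟨_, rfl⟩
  have hact : ∀ v, D₀.1.1 *ᵥ v =
      fun i => lam * (Sum.elim a (fun i => (a i)⁻¹) i * v i) := by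
    intro v
    rw [hD₀, coe_mul', sc_coe, iO_coe]
    have h1 : Cfsg.Agent.Lib.Helper18.mat (leviHom (n + 1) F A) =
        Matrix.diagonal (Sum.elim a (fun i => (a i)⁻¹)) := by
      show leviMat A.1 = _
      rw [hA, leviMat, Matrix.inv_eq_right_inv hmul1, Matrix.diagonal_transpose,
        Matrix.fromBlocks_diagonal]
    rw [h1, Units.val_mk0, Matrix.smul_mul, Matrix.one_mul, Matrix.smul_mulVec]
    funext i
    rw [Pi.smul_apply, Matrix.mulVec_diagonal, smul_eq_mul]
  refine ⟨D₀, A, Units.mk0 lam hl0, ?_, ?_, ?_, hD₀, ?_⟩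
  · intro v
    rw [semiFun_X1, semiFun_X1, hact, hact]
    apply ext_plus
    · simp only [Equiv.swap_apply_left, Sum.elim_inl, Sum.elim_inr, map_mul, map_inv₀, ha0,
        map_div₀]
      have h1 : σ lam * σ lam = lam * lam := by rw [← map_mul, hl, hσν]
      have h2 : σ lam ≠ 0 := by
        intro h
        rw [h, zero_mul] at h1
        exact hν (by rw [← hl, ← h1])
      have h3 : σ u ≠ 0 := by
        intro h
        rw [h, mul_zero] at hu
        exact hν hu.symm
      have h4 : u * σ u = σ lam * σ lam := by rw [hu, h1, hl]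
      field_simp
      linear_combination (σ (v (Sum.inr 0))) * h4
    · simp only [Equiv.swap_apply_right, Sum.elim_inl, Sum.elim_inr, map_mul, map_inv₀, ha0,
        map_div₀]
      have h1 : σ lam * σ lam = lam * lam := by rw [← map_mul, hl, hσν]
      have h2 : σ lam ≠ 0 := by
        intro h
        rw [h, zero_mul] at h1
        exact hν (by rw [← hl, ← h1])
      have h4 : u * σ u = lam * lam := by rw [hu, hl]
      field_simp
      linear_combination (-σ (v (Sum.inl 0))) * h4
    · intro i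
      rw [Equiv.swap_apply_of_ne_of_ne (by simp [Fin.succ_ne_zero]) (by simp)]
      simp only [Sum.elim_inl, has, map_mul]
      have h1 : σ lam * σ lam = lam * lam := by rw [← map_mul, hl, hσν]
      linear_combination (-σ (v (Sum.inl i.succ))) * h1
    · intro i
      rw [Equiv.swap_apply_of_ne_of_ne (by simp) (by simp [Fin.succ_ne_zero])]
      simp only [Sum.elim_inr, has, map_mul, map_inv₀]
      have h2 : σ lam ≠ 0 := by
        intro h
        exact hl0 (by simpa using h)
      field_simp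
  · apply preserves_of_map_eq (plusQF_nondegenerate (n + 1) F) isLagr_stdLagr D₀
    apply Submodule.eq_of_le_of_finrank_eq
    · rintro _ ⟨v, hv, rfl⟩
      rw [SetLike.mem_coe, mem_stdLagr] at hv
      rw [mem_stdLagr]
      intro i
      rw [Matrix.toLin'_apply, hact]
      show lam * (_ * v (Sum.inr i)) = 0
      rw [hv i]
      simp
    · rw [← lin_coe]
      exact LinearEquiv.finrank_map_eq _ _
  · intro v
    rw [hact, plusQF_coe]
    unfold Cfsg.quadFormPlus
    rw [Finset.mul_sum]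
    apply Finset.sum_congr rfl
    intro i _
    simp only [Sum.elim_inl, Sum.elim_inr]
    have := hane i
    rw [← hl]
    field_simp
  · rw [hA, Matrix.det_diagonal, Fin.prod_univ_succ, ha0]
    simp only [has, Finset.prod_const, Finset.card_univ, Fintype.card_fin]
    obtain ⟨k, rfl⟩ : ∃ k, n = k + 1 := ⟨n - 1, by omega⟩
    rw [Nat.add_sub_cancel, pow_succ]
    field_simp

end Cfsg.Agent.Lib.Helper6.GF
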