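import Mathlib
import Cfsg.Agent.Lib.Helper6.GF.Desc
import Cfsg.Agent.Lib.Helper59.GFF2
import Cfsg.Agent.Lib.Helper59.GFG1
import Cfsg.Agent.Lib.Helper6.GF.R2
import Cfsg.Agent.Lib.Helper6.GF.R3

set_option autoImplicit false
set_option linter.unusedSectionVars false
set_option linter.unusedVariables false

/-!
# The number of `Inn`-classes in the `Inndiag`-class of the standard involutory graph-field
automorphism (odd characteristic)
-/

namespace Cfsg.Agent.Lib.Helper6.GF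

open Matrix QuadraticMap Module
open scoped MatrixGroups
open Cfsg.Agent.Lib.Helper49 (GamL GamO semiFun semiFun_mul cGam goIncl goIncl_coe
  plusQF plusQF_coe minusQF minusQF_coe plusQF_nondegenerate isLagr_stdLagr IsLagr leviHom
  leviHom_mem_Omega_iff)
open Cfsg.Agent.Lib.Helper6.OA (GO cG cG_sc sc iO mu mu_unique minus_hv plus_hv inndiagOf Setup
  setup_plus neg_mem_plus_iff inndiagOf_plus preserves_plus_iff exists_sc_mul_iO
  isSquare_algebraMap Inn_eq mem_OmE' two_ne_zero_of_odd)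
open Cfsg.Agent.Lib.Helper18 (sgn sq_or_nonsq negIso)
open Cfsg.Agent.Lib.Helper59.OMinus (cG_eq_cGam)
open Cfsg.Agent.Lib.Helper59.GF (exists_u_lam count_lemma)

theorem isSquare_key {F : Type*} [Field F] [Fintype F] (u lam : F) (n q₀ : ℕ) (hn : 1 ≤ n)
    (hq : Odd q₀) (hl0 : lam ≠ 0) (hu : ¬ IsSquare u) (hlam : IsSquare lam ↔ q₀ % 4 = 3) :
    IsSquare (u * lam ^ (n - 1)) ↔ (Odd (n + 1) ∧ q₀ % 4 = 1) := by
  classical
  have hu0 : u ≠ 0 := by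
    rintro rfl
    exact hu IsSquare.zero
  rw [← quadraticChar_one_iff_isSquare (mul_ne_zero hu0 (pow_ne_zero _ hl0)), map_mul, map_pow,
    quadraticChar_neg_one_iff_not_isSquare.2 hu]
  obtain ⟨k, rfl⟩ : ∃ k, n = k + 1 := ⟨n - 1, by omega⟩
  rw [Nat.add_sub_cancel]
  have hq4 : q₀ % 4 = 1 ∨ q₀ % 4 = 3 := by
    rcases hq with ⟨t, rfl⟩
    omega
  by_cases hls : IsSquare lam
  · rw [(quadraticChar_one_iff_isSquare hl0).2 hls, one_pow]
    have := hlam.1 hls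
    constructor
    · intro h
      norm_num at h
    · rintro ⟨-, h⟩
      omega
  · rw [quadraticChar_neg_one_iff_not_isSquare.2 hls, ← pow_succ',
      neg_one_pow_eq_one_iff_even (by norm_num)]
    have h3 : q₀ % 4 ≠ 3 := fun h => hls (hlam.2 h)
    constructor
    · intro h
      exact ⟨h.add_one, by omega⟩
    · rintro ⟨h, -⟩
      rcases h with ⟨t, ht⟩
      exact ⟨t, by omega⟩

section main

variable {F F₀ : Type*} [Field F] [Fintype F] [Field F₀] [Fintype F₀] [Algebra F₀ F]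
  {n : ℕ} {σ : F ≃+* F} {ω : F} {a₀ b₀ : F₀} (d : Dat n σ ω a₀ b₀)

namespace Dat

include d

/-- a similarity commuting with the semilinear involution induces an automorphism commuting
with the graph-field automorphism -/
theorem comm_of_comm (G : ↥(GO ⇑(plusQF (n + 1) F)))
    (h : ∀ v, G.1.1 *ᵥ semiFun (X1 n σ).1 v = semiFun (X1 n σ).1 (G.1.1 *ᵥ v)) :
    cG ⇑(plusQF (n + 1) F) G ∈ Subgroup.centralizer {cGam ⇑(plusQF (n + 1) F) (X1 n σ)} := by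
  apply Subgroup.mem_centralizer_singleton_iff.2
  rw [cG_eq_cGam, ← map_mul, ← map_mul]
  congr 1
  apply Subtype.ext
  show (goIncl _ G).1 * (X1 n σ).1 = (X1 n σ).1 * (goIncl _ G).1
  apply gamL_ext
  · rw [SemidirectProduct.mul_right, SemidirectProduct.mul_right, goIncl_coe]
    simp
  · intro v
    rw [semiFun_mul, semiFun_mul, semiFun_goIncl, semiFun_goIncl, h]

/-- similarities over `F₀` with square multiplier, preserving the classes, induce inner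
automorphisms of `PΩ⁺(F)` -/
theorem inn_of_sq {ν : Fˣ} {D : ↥(GO ⇑(plusQF (n + 1) F))}
    (S : Setup (plusQF (n + 1) F) (n + 1) ν D)
    (hneg : negIso (plusQF (n + 1) F) ∈ Cfsg.Omega F ⇑(plusQF (n + 1) F))
    (g₀ : ↥(GO ⇑(minusQF n F₀ a₀ b₀)))
    (hP : Cfsg.PreservesSingularClasses ⇑(plusQF (n + 1) F) (d.T0 g₀).1.1)
    (t : F₀ˣ) (ht : mu _ (minus_hv a₀ b₀) g₀ = t * t) :
    cG ⇑(plusQF (n + 1) F) (d.T0 g₀) ∈ Cfsg.Inn (Cfsg.POmega F ⇑(plusQF (n + 1) F)) := by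
  obtain ⟨h₀, hh⟩ := exists_sc_mul_iO _ (minus_hv a₀ b₀) g₀ t ht
  obtain ⟨h, e1, e2⟩ := T0_iO d S h₀
  have e3 : d.T0 g₀ = sc _ (Units.map (algebraMap F₀ F : F₀ →* F) t) * iO _ h := by
    rw [hh, map_mul, d.T0_sc, e1]
  have h1 : S.eps (d.T0 g₀) = 1 := by
    rw [S.eps_eq_one_iff, ← preserves_plus_iff S]
    exact hP
  rw [e3, map_mul, S.eps_sc, one_mul, S.eps_iO_eq_one_iff] at h1
  rw [e3, map_mul, cG_sc, one_mul, S.N0_iff hneg, S.mem_Omega_iff', S.sgn_eq_of_dh h1]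
  exact ⟨e2, e2⟩

set_option maxHeartbeats 1600000 in
theorem count_X1 (hodd : Odd (Fintype.card F)) (q₀ : ℕ) (hq₀ : Fintype.card F₀ = q₀)
    (hσq : ∀ x, σ x = x ^ q₀) :
    ((Odd (n + 1) ∧ q₀ % 4 = 1) → Cfsg.splitClassCount
      (inndiagOf ⇑(plusQF (n + 1) F) (Cfsg.PreservesSingularClasses ⇑(plusQF (n + 1) F)))
      (Cfsg.Inn (Cfsg.POmega F ⇑(plusQF (n + 1) F))) (cGam ⇑(plusQF (n + 1) F) (X1 n σ)) = 4) ∧
    (¬ (Odd (n + 1) ∧ q₀ % 4 = 1) → Cfsg.splitClassCount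
      (inndiagOf ⇑(plusQF (n + 1) F) (Cfsg.PreservesSingularClasses ⇑(plusQF (n + 1) F)))
      (Cfsg.Inn (Cfsg.POmega F ⇑(plusQF (n + 1) F))) (cGam ⇑(plusQF (n + 1) F) (X1 n σ)) = 2) := by
  have hn := d.hn
  have hm4 : 4 ≤ n + 1 := by omega
  obtain ⟨ν, D, -, S⟩ := setup_plus hodd hm4
  have hq : Fintype.card F = q₀ ^ 2 := by
    rw [Module.card_eq_pow_finrank (K := F₀) (V := F), d.rk, hq₀]
  have hq₀odd : Odd q₀ := by
    rw [hq] at hodd
    exact Nat.Odd.of_mul_left (by rwa [pow_two] at hodd)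
  have hneg : negIso (plusQF (n + 1) F) ∈ Cfsg.Omega F ⇑(plusQF (n + 1) F) := by
    rw [neg_mem_plus_iff hodd hm4]
    rintro ⟨-, h⟩
    rw [hq] at h
    rcases hq₀odd with ⟨t, rfl⟩
    have : (2 * t + 1) ^ 2 = 4 * (t * t + t) + 1 := by ring
    omega
  have h2₀ : (2 : F₀) ≠ 0 := by
    intro h
    apply S.h2
    have := congrArg (algebraMap F₀ F) h
    rw [map_ofNat, map_zero] at this
    exact this
  obtain ⟨u, lam, ν₀, hu, hl, hν₀, hunsq, hlam⟩ :=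
    exists_u_lam q₀ hq₀ hq hq₀odd σ hσq (algebraMap F₀ F) d.fix
  have hν₀0 : ν₀ ≠ 0 := by
    rintro rfl
    exact hν₀ IsSquare.zero
  have hν0 : algebraMap F₀ F ν₀ ≠ 0 := by
    intro h
    exact hν₀0 ((algebraMap F₀ F).injective (by rw [h, map_zero]))
  have hl0 : lam ≠ 0 := by
    rintro rfl
    exact hν0 (by rw [← hl, mul_zero])
  obtain ⟨D₀, A, l, hcomm, hPSC, hmul, hD₀, hdet⟩ :=
    exists_D0 n (by omega) σ d.inv u lam (algebraMap F₀ F ν₀) hu hl hν0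
  obtain ⟨Ψ₀, hΨa, hΨb, hcent, -⟩ := d.core
  have key : cG ⇑(plusQF (n + 1) F) D₀ ∈ Cfsg.Inn (Cfsg.POmega F ⇑(plusQF (n + 1) F)) ↔
      (Odd (n + 1) ∧ q₀ % 4 = 1) := by
    rw [hD₀, map_mul, cG_sc, one_mul, S.N0_iff hneg, leviHom_mem_Omega_iff (Or.inr (by omega)),
      hdet, isSquare_key u lam n q₀ (by omega) hq₀odd hl0 hunsq hlam]
  rw [inndiagOf_plus S] at hcent ⊢
  have hD₀mem : cG ⇑(plusQF (n + 1) F) D₀ ∈ S.ID ⊓
      Subgroup.centralizer {cGam ⇑(plusQF (n + 1) F) (X1 n σ)} := by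
    refine ⟨(S.cG_mem_ID_iff D₀).2 ?_, d.comm_of_comm D₀ hcomm⟩
    rw [S.eps_eq_one_iff, ← preserves_plus_iff S]
    exact hPSC
  obtain ⟨d₀, hd₀⟩ := d.exists_T0_eq D₀ hcomm
  have hmud₀ : mu _ (minus_hv a₀ b₀) d₀ = Units.mk0 ν₀ hν₀0 := by
    have h1 := d.mu_T0 S.hv d₀
    rw [hd₀] at h1
    have h2 : (mu _ S.hv D₀ : F) = algebraMap F₀ F ν₀ := mu_unique _ S.hv D₀ _ hmul
    apply Units.ext
    apply (algebraMap F₀ F).injective
    rw [Units.val_mk0, ← h2, h1]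
    rfl
  have hΨd₀ : Ψ₀ d₀ = 1 := by
    rw [hΨb, hd₀]
    exact hPSC
  have hcl := count_lemma S.ID (Cfsg.Inn (Cfsg.POmega F ⇑(plusQF (n + 1) F)))
    (S.muBar.ker.map (cG ⇑(plusQF (n + 1) F))) S.Inn_le_ID
    (cGam ⇑(plusQF (n + 1) F) (X1 n σ)) (S.relIndex_Inn_ID hneg) ?_ ?_ ?_
  · refine ⟨fun hc => hcl.1 ?_, fun hc => hcl.2 (fun hle => hc (key.1 (hle hD₀mem)))⟩
    rw [hcent]
    rintro _ ⟨g₀, hg₀, rfl⟩
    have hg₀' : Ψ₀ g₀ = 1 := hg₀
    show cG ⇑(plusQF (n + 1) F) (d.T0 g₀) ∈ _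
    rcases sq_or_nonsq h2₀ hν₀ (mu _ (minus_hv a₀ b₀) g₀).ne_zero with ⟨t, ht⟩ | ⟨t, ht⟩
    · have ht0 : t ≠ 0 := by
        rintro rfl
        exact (mu _ (minus_hv a₀ b₀) g₀).ne_zero (by rw [ht]; simp)
      exact d.inn_of_sq S hneg g₀ ((hΨb g₀).1 hg₀') (Units.mk0 t ht0)
        (Units.ext (by rw [ht, Units.val_mul, Units.val_mk0, pow_two]))
    · have ht0 : t ≠ 0 := by
        rintro rfl
        exact (mu _ (minus_hv a₀ b₀) g₀).ne_zero (by rw [ht]; simp)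
      have h1 : cG ⇑(plusQF (n + 1) F) (d.T0 (g₀ * d₀⁻¹)) ∈
          Cfsg.Inn (Cfsg.POmega F ⇑(plusQF (n + 1) F)) := by
        apply d.inn_of_sq S hneg (g₀ * d₀⁻¹) _ (Units.mk0 t ht0)
        · rw [map_mul, map_inv, hmud₀]
          apply Units.ext
          rw [Units.val_mul, ht, Units.val_mul, Units.val_mk0, Units.val_inv_eq_inv_val,
            Units.val_mk0]
          field_simp
        · rw [← hΨb, map_mul, map_inv, hg₀', hΨd₀]
          simp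
      have h2 : d.T0 g₀ = d.T0 (g₀ * d₀⁻¹) * D₀ := by
        rw [← hd₀, ← map_mul, inv_mul_cancel_right]
      rw [h2, map_mul]
      exact mul_mem h1 (key.2 hc)
  · rw [Inn_eq]
    apply Subgroup.map_mono
    intro b hb
    obtain ⟨h, rfl, -⟩ := (mem_OmE' b).1 hb
    exact S.muBar_iO h
  · rw [hcent]
    rintro _ ⟨g₀, -, rfl⟩
    refine ⟨d.T0 g₀, ?_, rfl⟩
    show S.muBar (d.T0 g₀) = 1
    rw [S.muBar_eq_one_iff, d.mu_T0 S.hv g₀]
    obtain ⟨r, hr⟩ := isSquare_algebraMap d.rk h2₀ ((mu _ (minus_hv a₀ b₀) g₀ : F₀ˣ) : F₀)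
    have hr0 : r ≠ 0 := by
      rintro rfl
      rw [mul_zero] at hr
      exact (mu _ (minus_hv a₀ b₀) g₀).ne_zero
        ((algebraMap F₀ F).injective (by rw [hr, map_zero]))
    exact ⟨Units.mk0 r hr0, Units.ext hr⟩
  · obtain ⟨g, hg⟩ := S.prod_surjective (-1, 1)
    have hg1 : S.muBar g = -1 := congrArg Prod.fst hg
    have hg2 : S.eps g = 1 := congrArg Prod.snd hg
    refine ⟨cG _ g, (S.cG_mem_ID_iff g).2 hg2, ?_⟩
    rintro ⟨b, hb, e⟩
    obtain ⟨l', rfl⟩ := (S.cG_eq_iff' _ _).1 e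
    have hb' : S.muBar (sc _ l' * g) = 1 := hb
    rw [map_mul, S.muBar_sc, one_mul, hg1] at hb'
    exact absurd hb' (by decide)

end Dat

end main

end Cfsg.Agent.Lib.Helper6.GF
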