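import Mathlib
import Cfsg.Agent.Lib.Helper6.GF.Count
import Cfsg.Agent.Lib.Helper59.GFF1

set_option autoImplicit false
set_option linter.unusedSectionVars false
set_option linter.unusedVariables false

/-!
# Involutory graph-field automorphisms of `PΩ⁺`: assembly
-/

namespace Cfsg.Agent.Lib.Helper6.GF

open Matrix QuadraticMap Module
open scoped MatrixGroups
open Cfsg.Agent.Lib.Helper49 (GamL GamO cGam plusQF minusQF)
open Cfsg.Agent.Lib.Helper6.OA (inndiagOf inndiagOf_plus_char_two)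
open Cfsg.Agent.Lib.Helper66.OGrp (PL)
open Cfsg.Agent.Lib.Helper18.AutPSL (splitClassCount_conj)
open Cfsg.Agent.Lib.Helper59.GF (sigma_eq_pow)

theorem splitClassCount_self {X : Type*} [Group X] (H : Subgroup X) (x : X) :
    Cfsg.splitClassCount H H x = 1 := by
  unfold Cfsg.splitClassCount
  rw [Nat.card_eq_one_iff_unique]
  have hx0 : Cfsg.IsConjUnder H x x := ⟨1, H.one_mem, by simp⟩
  have key : ∀ q : Quot (fun y z : {y : X // Cfsg.IsConjUnder H x y} =>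
      Cfsg.IsConjUnder H y.1 z.1), q = Quot.mk _ ⟨x, hx0⟩ := by
    intro q
    induction q using Quot.ind with
    | _ y =>
      obtain ⟨y, d, hd, rfl⟩ := y
      symm
      apply Quot.sound
      exact ⟨d, hd, rfl⟩
  exact ⟨⟨fun a b => by rw [key a, key b]⟩, ⟨Quot.mk _ ⟨x, hx0⟩⟩⟩

theorem cent_conj_equiv {X : Type*} [Group X] (H : Subgroup X) (s u : X) (hu : u ∈ H) :
    Nonempty (↥(H ⊓ Subgroup.centralizer {u⁻¹ * s * u}) ≃* ↥(H ⊓ Subgroup.centralizer {s})) := by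
  have h1 := map_inf_centralizer (MulAut.conj u⁻¹) H s
  have h2 : H.map (MulAut.conj u⁻¹).toMonoidHom = H := by
    ext y
    constructor
    · rintro ⟨a, ha, rfl⟩
      show MulAut.conj u⁻¹ a ∈ H
      rw [MulAut.conj_apply]
      exact H.mul_mem (H.mul_mem (H.inv_mem hu) ha) (H.inv_mem (H.inv_mem hu))
    · intro hy
      refine ⟨u * y * u⁻¹, H.mul_mem (H.mul_mem hu hy) (H.inv_mem hu), ?_⟩
      show MulAut.conj u⁻¹ (u * y * u⁻¹) = y
      rw [MulAut.conj_apply]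
      group
  have h3 : MulAut.conj u⁻¹ s = u⁻¹ * s * u := by
    rw [MulAut.conj_apply, inv_inv]
  rw [h2, h3] at h1
  rw [← h1]
  exact ⟨((MulAut.conj u⁻¹).subgroupMap _).symm⟩

set_option maxHeartbeats 1600000 in
theorem main {F : Type*} [Field F] [Fintype F] {p f : ℕ} [Fact p.Prime]
    (hF : Fintype.card F = p ^ f) (k : ℕ) (hk : 5 ≤ k + 1)
    (hub : Cfsg.gammaPOmega F ⇑(plusQF (k + 1) F) = ⊤)
    (x : MulAut (Cfsg.POmega F ⇑(plusQF (k + 1) F))) (hx : GFC (k + 1) x) (hx2 : orderOf x = 2)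
    (F₀ : Type*) [Field F₀] [Fintype F₀] (hF₀ : Fintype.card F₀ = p ^ (f / 2)) :
    Even f ∧
    (∀ y : MulAut (Cfsg.POmega F ⇑(plusQF (k + 1) F)), GFC (k + 1) y → orderOf y = 2 →
      Cfsg.IsConjUnder (inndiagOf ⇑(plusQF (k + 1) F)
        (Cfsg.PreservesSingularClasses ⇑(plusQF (k + 1) F))) x y) ∧
    (∃ a₀ b₀ : F₀, (∀ z₁ z₂ : F₀, z₁ ^ 2 + a₀ * z₁ * z₂ + b₀ * z₂ ^ 2 = 0 → z₁ = 0 ∧ z₂ = 0) ∧
      Nonempty (↥(inndiagOf ⇑(plusQF (k + 1) F)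
        (Cfsg.PreservesSingularClasses ⇑(plusQF (k + 1) F)) ⊓ Subgroup.centralizer {x}) ≃*
        ↥(inndiagOf ⇑(minusQF k F₀ a₀ b₀) (Cfsg.PreservesSingularClassesMinus k a₀ b₀)))) ∧
    (p = 2 → Cfsg.splitClassCount (inndiagOf ⇑(plusQF (k + 1) F)
        (Cfsg.PreservesSingularClasses ⇑(plusQF (k + 1) F)))
        (Cfsg.Inn (Cfsg.POmega F ⇑(plusQF (k + 1) F))) x = 1) ∧
    ((p ≠ 2 ∧ Odd (k + 1) ∧ p ^ (f / 2) % 4 = 1) →
      Cfsg.splitClassCount (inndiagOf ⇑(plusQF (k + 1) F)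
        (Cfsg.PreservesSingularClasses ⇑(plusQF (k + 1) F)))
        (Cfsg.Inn (Cfsg.POmega F ⇑(plusQF (k + 1) F))) x = 4) ∧
    ((p ≠ 2 ∧ ¬ (Odd (k + 1) ∧ p ^ (f / 2) % 4 = 1)) →
      Cfsg.splitClassCount (inndiagOf ⇑(plusQF (k + 1) F)
        (Cfsg.PreservesSingularClasses ⇑(plusQF (k + 1) F)))
        (Cfsg.Inn (Cfsg.POmega F ⇑(plusQF (k + 1) F))) x = 2) := by
  obtain ⟨X, hxX, hXP, hXo⟩ := exists_rep hF hk hub x hx hx2
  obtain ⟨σ, hσ⟩ : ∃ σ, σ = X.1.right := ⟨_, rfl⟩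
  rw [← hσ] at hXo
  obtain ⟨hev, hσq⟩ := sigma_eq_pow hF σ hXo
  obtain ⟨A, ω, a₀, b₀, d⟩ := exists_dat hF hF₀ (by omega : 4 ≤ k) σ hXo
  have hσ1 : σ ≠ 1 := by
    intro h
    rw [h, orderOf_one] at hXo
    omega
  obtain ⟨h, hh, e⟩ := conj_of_rep k hk hub x hx hx2 X (X1 k σ) hxX hXP (not_PL_X1 k σ)
    (by rw [X1_right, hσ]) (orderOf_cGam_X1 k hk σ d.inv hσ1)
  have ex : x = h⁻¹ * cGam ⇑(plusQF (k + 1) F) (X1 k σ) * h := by
    rw [e]; group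
  refine ⟨hev, ?_, ⟨a₀, b₀, d.ani, ?_⟩, ?_, ?_, ?_⟩
  · intro y hy hy2
    obtain ⟨Y, hyY, hYP, hYo⟩ := exists_rep hF hk hub y hy hy2
    have hr : Y.1.right = X.1.right := by
      ext z
      rw [(sigma_eq_pow hF _ hYo).2 z, ← hσ, hσq z]
    have := conj_of_rep k hk hub x hx hx2 X Y hxX hXP hYP hr (by rw [← hyY]; exact hy2)
    rw [← hyY] at this
    exact this
  · obtain ⟨-, -, -, -, ⟨e1⟩⟩ := d.core
    obtain ⟨e2⟩ := cent_conj_equiv (inndiagOf ⇑(plusQF (k + 1) F)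
      (Cfsg.PreservesSingularClasses ⇑(plusQF (k + 1) F))) (cGam ⇑(plusQF (k + 1) F) (X1 k σ)) h hh
    rw [ex]
    exact ⟨e2.trans e1⟩
  · intro hp
    have h2 : (2 : F) = 0 := by
      have : CharP F p := charP_of_card_eq_prime_pow hF
      rw [hp] at this
      exact CharTwo.two_eq_zero
    rw [inndiagOf_plus_char_two h2 (by omega)]
    exact splitClassCount_self _ _
  · rintro ⟨hp, hc⟩
    rw [ex, splitClassCount_conj _ _ _ _ hh]
    refine (d.count_X1 ?_ _ hF₀ hσq).1 hc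
    rw [hF]
    exact ((Fact.out : p.Prime).odd_of_ne_two hp).pow
  · rintro ⟨hp, hc⟩
    rw [ex, splitClassCount_conj _ _ _ _ hh]
    refine (d.count_X1 ?_ _ hF₀ hσq).2 hc
    rw [hF]
    exact ((Fact.out : p.Prime).odd_of_ne_two hp).pow

end Cfsg.Agent.Lib.Helper6.GF
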